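import Cfsg.Agent.Lib.Helper99.X3.Defs

set_option autoImplicit false
open scoped MatrixGroups

namespace Cfsg.Agent.Lib.Helper99.X3

variable {F : Type*} [Field F]

local notation "M3" => Matrix (Fin 3) (Fin 3) F

theorem C3 [Fintype F] (H K : Subgroup (GL (Fin 3) F)) (hK : K ≤ Cfsg.Geo.specialLinear (Fin 3) F)
    (r : ℕ) [Fact r.Prime] (hr3 : r ≠ 3) (h : r ∣ H.relIndex K) :
    ∃ x ∈ K, x ^ r = 1 ∧ ∀ z : F, (x : M3) ≠ z • (1 : M3) := by
  have hr : r.Prime := Fact.out
  have h1 : r ∣ Nat.card K := h.trans (Subgroup.index_dvd_card _)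
  obtain ⟨x, hx⟩ := exists_prime_orderOf_dvd_card' r h1
  refine ⟨x, x.2, ?_, ?_⟩
  · have h2 : x ^ r = 1 := by rw [← hx]; exact pow_orderOf_eq_one x
    exact_mod_cast congrArg Subtype.val h2
  · intro z hz
    have hdet : Matrix.GeneralLinearGroup.det (x : GL (Fin 3) F) = 1 := hK x.2
    have hdet' : ((x : GL (Fin 3) F) : M3).det = 1 := by
      have := congrArg Units.val hdet
      simpa using this
    have hz3 : z ^ 3 = 1 := by
      rw [hz, Matrix.det_smul, Matrix.det_one, mul_one] at hdet'
      simpa using hdet'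
    have h2 : x ^ r = 1 := by rw [← hx]; exact pow_orderOf_eq_one x
    have h3 : ((x : GL (Fin 3) F) : M3) ^ r = 1 := by
      have h4 : ((x : GL (Fin 3) F)) ^ r = 1 := by exact_mod_cast congrArg Subtype.val h2
      have h5 := congrArg Units.val h4
      simpa using h5
    have hzr : z ^ r = 1 := by
      rw [hz, smul_pow, one_pow] at h3
      have h6 := congrFun (congrFun h3 0) 0
      simpa using h6
    have hz1 : z = 1 := by
      have hcop : Nat.gcd 3 r = 1 := by
        rw [Nat.coprime_primes Nat.prime_three hr |>.2 (Ne.symm hr3)]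
      have := pow_gcd_eq_one.2 ⟨hz3, hzr⟩
      rwa [hcop, pow_one] at this
    have hx1 : x = 1 := by
      apply Subtype.ext
      apply Units.ext
      rw [hz, hz1, one_smul]
      rfl
    rw [hx1, orderOf_one] at hx
    exact hr.one_lt.ne hx

end Cfsg.Agent.Lib.Helper99.X3
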