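import Cfsg.Agent.Lib.Helper99.X3.Defs

set_option autoImplicit false
open scoped MatrixGroups

namespace Cfsg.Agent.Lib.Helper99.X3

variable {F : Type*} [Field F]

local notation "M3" => Matrix (Fin 3) (Fin 3) F

theorem E1 [Fintype F] : Nat.card (Cfsg.Geo.specialLinear (Fin 3) F) =
    Fintype.card F ^ 3 * (Fintype.card F ^ 2 - 1) * (Fintype.card F ^ 3 - 1) := by
  have h1 := Subgroup.card_eq_card_quotient_mul_card_subgroup
    (Matrix.GeneralLinearGroup.det : GL (Fin 3) F →* Fˣ).ker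
  have h2 : Nat.card (GL (Fin 3) F ⧸ (Matrix.GeneralLinearGroup.det : GL (Fin 3) F →* Fˣ).ker)
      = Nat.card Fˣ :=
    Nat.card_congr (QuotientGroup.quotientKerEquivOfSurjective _
      Matrix.GeneralLinearGroup.det_surjective).toEquiv
  have h3 : Nat.card (GL (Fin 3) F) = ∏ i : Fin 3, (Fintype.card F ^ 3 - Fintype.card F ^ (i : ℕ)) :=
    Matrix.card_GL_field 3
  have h4 : Nat.card Fˣ = Fintype.card F - 1 := by
    classical
    rw [Nat.card_eq_fintype_card, Fintype.card_units]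
  rw [h2, h3, h4, Fin.prod_univ_three] at h1
  unfold Cfsg.Geo.specialLinear
  generalize Nat.card (Matrix.GeneralLinearGroup.det : GL (Fin 3) F →* Fˣ).ker = N at h1 ⊢
  obtain ⟨s, hs⟩ : ∃ s, Fintype.card F = s + 2 := ⟨Fintype.card F - 2, by
    have := Fintype.one_lt_card (α := F); omega⟩
  rw [hs] at h1 ⊢
  simp only [Fin.val_zero, Fin.val_one, Fin.val_two, pow_zero, pow_one] at h1
  have e1 : (s + 2) ^ 3 - 1 = s ^ 3 + 6 * s ^ 2 + 12 * s + 7 := by
    have : (s + 2) ^ 3 = s ^ 3 + 6 * s ^ 2 + 12 * s + 7 + 1 := by ring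
    omega
  have e2 : (s + 2) ^ 3 - (s + 2) = (s + 2) * (s ^ 2 + 4 * s + 3) := by
    have : (s + 2) ^ 3 = (s + 2) * (s ^ 2 + 4 * s + 3) + (s + 2) := by ring
    omega
  have e3 : (s + 2) ^ 3 - (s + 2) ^ 2 = (s + 2) ^ 2 * (s + 1) := by
    have : (s + 2) ^ 3 = (s + 2) ^ 2 * (s + 1) + (s + 2) ^ 2 := by ring
    omega
  have e4 : (s + 2) ^ 2 - 1 = s ^ 2 + 4 * s + 3 := by
    have : (s + 2) ^ 2 = s ^ 2 + 4 * s + 3 + 1 := by ring
    omega
  have e5 : s + 2 - 1 = s + 1 := by omega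
  rw [e1, e2, e3, e5] at h1
  rw [e1, e4]
  have h6 : (s + 1) * N = (s + 1) * ((s + 2) ^ 3 * (s ^ 2 + 4 * s + 3) * (s ^ 3 + 6 * s ^ 2 + 12 * s + 7)) := by
    rw [← h1]; ring
  exact Nat.eq_of_mul_eq_mul_left (by omega) h6

end Cfsg.Agent.Lib.Helper99.X3
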